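import Cfsg.Agent.X9T.C
import Cfsg.Agent.X9O.B1

/-! The elementary abelian subgroups of order `64`: the swap element. -/

set_option autoImplicit false

universe u

namespace Cfsg.Lib.X9T

open Subgroup Cfsg.Lib.Local Cfsg.Lib.Solv Module Cfsg.Lib.Spor Cfsg.Lib.LX
open Cfsg.Lib.X9O (Ty cj_inj cj_eq_iff nw_cj cj_self JJ St map_ρ_mul map_ρ_mem map_ρ_inv J_le J_fix
  conjP)
open scoped Pointwise commutatorElement

variable {G : Type u} [Group G] {z s t : G} {V : Type*} [AddCommGroup V] [Module (ZMod 2) V]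
  {S : Sh (qOf z) z V} {W : Fin 3 → Submodule (ZMod 2) V} {C : Subgroup G}

namespace Loc

variable (h : Loc S s t W C)
include h

theorem tC : t ∈ centralizer ({z} : Set G) := h.tB.2

theorem tt : t * t ∈ qOf z := h.nw.sq_mem h.tB

theorem sb : S.π s ∈ W 0 := (h.ker _).2 (h.nw.N_s S h.tC (h.nw.B_le h.tB))

theorem sP : s ∈ S.pre' (W 0) := ⟨h.nw.mem, h.sb⟩

theorem perm_of {c : G} (hc : c ∈ C) {i j : Fin 3} {v : V} (hv : v ∈ W i)
    (h0 : v ≠ 0) (e : S.ρ c v ∈ W j) : (W i).map (S.ρ c) = W j := by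
  obtain ⟨k, hk⟩ := h.perm c hc i
  by_cases e' : k = j
  · rw [hk, e']
  · exact absurd (h.disj k j e' _ (hk ▸ Submodule.mem_map_of_mem hv) e) (mt (S.ρ_eq_zero (h.le hc)).1 h0)

theorem N_eq {d : G} (e : d * t ∈ qOf z) (v : V) : S.N d v = S.N t v := by
  rw [← S.N_inv_of_sq h.tC h.tt, ← S.N_mem_mul (inv_mem h.tC) e, mul_inv_cancel_right]

theorem notQ {d : G} (e : d * t ∈ qOf z) : d ∉ qOf z := fun k =>
  h.tQ ((Subgroup.mul_mem_cancel_left _ k).1 e)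

theorem inv_mul {a b : G} (ha : a * t ∈ qOf z) (hb : b * t ∈ qOf z) : a⁻¹ * b ∈ qOf z := by
  simpa [mul_assoc] using S.conj_mem h.tC (mul_mem (inv_mem ha) hb)

theorem mul {a b : G} (ha : a * t ∈ qOf z) (hb : b * t ∈ qOf z) : a * b ∈ qOf z := by
  simpa [mul_assoc] using mul_mem (mul_mem ha (S.conj_mem (inv_mem h.tC) hb)) (inv_mem h.tt)

theorem moves {d : G} (e : d * t ∈ qOf z) {i : Fin 3} (hi : i ≠ 0) {v : V} (hv : v ∈ W i)
    (k : S.ρ d v ∈ W i) : v = 0 :=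
  h.disj i 0 hi v hv ((h.ker v).2 (h.disj i 0 hi _ (by
    rw [← h.N_eq e, S.N_apply]; exact add_mem k hv) ((h.ker _).2 (h.nw.N_N S h.tB v))))

theorem ex1 : ∃ c ∈ C, (W 0).map (S.ρ c) = W 1 ∧
    S.ρ c (S.π s) ∈ S.E s := by
  obtain ⟨c, hc, e, e'⟩ := h.e1
  exact ⟨c, hc, h.perm_of hc h.sb (h.nw.π_ne S) e, e'⟩

theorem t12 : (W 1).map (S.ρ t) = W 2 := by
  obtain ⟨c, hc, e, -⟩ := h.e1
  have n := mt (S.ρ_eq_zero (h.le hc)).1 (h.nw.π_ne S)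
  obtain ⟨j, hj⟩ := h.perm t h.tC0 1
  have m : S.ρ t _ ∈ W j := hj ▸ Submodule.mem_map_of_mem e
  obtain rfl | rfl | rfl : j = 0 ∨ j = 1 ∨ j = 2 := by omega
  · exact absurd (h.disj 1 0 (by decide) _ e
      (S.ρ_inj h.tC (S.N_eq_zero.1 ((h.ker _).1 m)) ▸ m)) n
  · exact absurd (h.moves h.tt (by decide) e m) n
  · exact hj

theorem exi (i : Fin 3) : ∃ c ∈ C, (W 0).map (S.ρ c) = W i := by
  obtain ⟨c, hc, e, -⟩ := h.ex1
  obtain rfl | rfl | rfl : i = 0 ∨ i = 1 ∨ i = 2 := by omega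
  exacts [⟨1, one_mem _, map_ρ_mem (one_mem _) _⟩, ⟨c, hc, e⟩,
    ⟨t * c, mul_mem h.tC0 hc, by rw [map_ρ_mul h.tC (h.le hc), e, h.t12]⟩]

theorem dimW (i : Fin 3) : finrank (ZMod 2) (W i) = 4 := by
  obtain ⟨c, hc, e⟩ := h.exi i
  rw [← e, ← (Submodule.equivMapOfInjective _ (S.ρ_inj (h.le hc)) _).finrank_eq,
    show W 0 = LinearMap.ker (S.N t) from Submodule.ext h.ker]
  exact h.t1.dimK t h.tB h.tQ

theorem exW (i : Fin 3) : ∃ v ∈ W i, v ≠ 0 := by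
  obtain ⟨c, hc, e⟩ := h.exi i
  exact ⟨_, e ▸ Submodule.mem_map_of_mem h.sb, mt (S.ρ_eq_zero (h.le hc)).1 (h.nw.π_ne S)⟩

theorem qW {i : Fin 3} {v : V} (hv : v ∈ W i) : S.q v = 0 := by
  obtain ⟨c, hc, e⟩ := h.exi i
  obtain ⟨u, hu, rfl⟩ := e.ge hv
  rw [S.q_ρ (h.le hc), h.sing u hu]

theorem bW {i : Fin 3} {u v : V} (hu : u ∈ W i) (hv : v ∈ W i) : S.b u v = 0 := by
  simpa [h.qW hu, h.qW hv, h.qW (add_mem hu hv)] using (S.q_add u v).symm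

theorem P_sq {i : Fin 3} {x : G} (hx : x ∈ S.pre' (W i)) : x * x = 1 :=
  (S.q_π x hx.1).1 (h.qW hx.2)

theorem P_le (i : Fin 3) : S.pre' (W i) ≤ JJ S W i := fun x hx y hy =>
  (S.b_π y hy.1 x hx.1).1 (h.bW hy.2 hx.2)

theorem zJ (i : Fin 3) : z ∈ JJ S W i := h.P_le i (S.z_mem_pre' _)

theorem J_Q {x : G} (hx : x ∈ JJ S W 0) : x ∈ qOf z ∨ x * t ∈ qOf z :=
  h.cen x (J_le hx) fun _ hv _ => J_fix hx hv

theorem J_C {x : G} (hx : x ∈ JJ S W 0) : x ∈ C :=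
  (h.J_Q hx).elim (fun k => h.QC k) fun k => (C.mul_mem_cancel_right h.tC0).1 (h.QC k)

variable [Finite V]

theorem perpW (i : Fin 3) : S.perp (W i) = W i :=
  (Submodule.eq_of_le_of_finrank_eq (fun _ hv => S.mem_perp.2 fun _ hu => h.bW hu hv) (by
    have := S.finrank_perp (W i)
    rw [h.dim, h.dimW] at this
    rw [h.dimW]; omega)).symm

theorem not_le_E : ¬ W 0 ≤ S.E s := fun k => by
  obtain ⟨e, he, k'⟩ := h.t1.move t h.tB h.tQ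
  rw [← Submodule.eq_of_le_of_finrank_eq k ((h.dimW 0).trans h.t1.dimE.symm), h.ker] at he
  exact h.nw.π_ne S (k'.symm.trans he)

theorem memP {i : Fin 3} {x : G} (hx : x ∈ qOf z) :
    x ∈ centralizer (S.pre' (W i) : Set G) ↔ S.π x ∈ W i :=
  ⟨fun k => h.perpW i ▸ S.mem_perp.2 fun u hu => by
    obtain ⟨y, hy, rfl⟩ := S.π_surj u
    exact (S.b_π y hy x hx).2 (k y ⟨hy, hu⟩), fun k => h.P_le i ⟨hx, k⟩⟩

omit [Finite V] in
theorem conjJ {i j : Fin 3} {c : G} (hc : c ∈ centralizer ({z} : Set G))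
    (e : (W i).map (S.ρ c) = W j) :
    MulAut.conj c • centralizer (S.pre' (W i) : Set G) = centralizer (S.pre' (W j) : Set G) := by
  have _ := h
  ext x
  rw [mem_cj]
  refine ⟨fun k y hy => ?_, fun k y hy => ?_⟩
  · have := conjP (inv_mem hc) (map_ρ_inv hc e) hy
    rw [inv_inv] at this
    have := k _ this
    rw [← cj_mul, ← cj_mul] at this; simpa using this
  · have := k _ (conjP hc e hy)
    rw [← (MulAut.conj c).injective.eq_iff]; simpa [mul_assoc] using this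

variable [Finite G]

theorem memJ {d : G} (hd : d ∈ centralizer ({z} : Set G)) (h2 : d * d = 1) (e : d * t ∈ qOf z) :
    d ∈ JJ S W 0 := fun x hx => by
  have := h.inverts hd h2 (h.notQ e) hx.1 ((h.N_eq e _).trans ((h.ker _).1 hx.2))
  rw [inv_eq_of_mul_eq_one_right (h.P_sq hx)] at this
  rw [← this, inv_mul_cancel_right, this]

omit [Finite G] in
theorem J_cases {τ x : G} (hτ : τ ∈ JJ S W 0) (hQ : τ ∉ qOf z) (hx : x ∈ JJ S W 0)
    (k : x ∉ qOf z) : τ⁻¹ * x ∈ S.pre' (W 0) :=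
  have m := h.inv_mul ((h.J_Q hτ).resolve_left hQ) ((h.J_Q hx).resolve_left k)
  ⟨m, (h.memP m).1 (mul_mem (inv_mem hτ) hx)⟩

omit [Finite V] in
theorem st {a : G} (ha : a ∈ qOf z ∨ a ∈ qOf s) : St S s a := fun x h1 h2 => by
  have k : ∀ {d}, PreLX (qOf d) d → a ∈ qOf d → x ∈ qOf d →
      a * x * a⁻¹ = x ∨ a * x * a⁻¹ = x * d := fun h ha hx => by
    have T := shOf h
    exact (T.π_eq_iff hx (T.conj_mem (qOf_le _ ha) hx)).1 (by
      rw [← T.ρ_π a (qOf_le _ ha) x hx, T.ρ_of_mem ha])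
  rcases ha with ha | ha
  · rcases k S.pre ha h1 with e | e <;> rw [e]
    · exact ⟨h1, h2, .inl rfl⟩
    · exact ⟨mul_mem h1 S.pre.mem, mul_mem h2 h.nw.zs, .inl (S.π_mul_z h1)⟩
  · rcases k h.nw.ps ha h2 with e | e <;> rw [e]
    · exact ⟨h1, h2, .inl rfl⟩
    · exact ⟨mul_mem h1 h.nw.mem, mul_mem h2 h.nw.ps.mem, .inr (S.π_mul x h1 s h.nw.mem)⟩

theorem swap_aux {g : G} (h2 : g * s * g⁻¹ = z) (h4 : St S s g⁻¹) {x : G}
    (hx : x ∈ S.pre' (W 0)) (hs : x ∉ qOf s) : g * x * g⁻¹ ∈ JJ S W 0 ∧ g * x * g⁻¹ ∉ qOf z := by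
  have a : g * x * g⁻¹ ∉ qOf z := by rwa [← h2, mem_qOf_conj_iff]
  have b : g * x * g⁻¹ ∈ centralizer ({z} : Set G) := by
    rw [← h2, mem_C_cj]; simpa [mul_assoc] using mem_C.2 (h.P_le 0 h.sP x hx)
  refine ⟨h.memJ b (by simp [mul_assoc, ← mul_assoc x, h.P_sq hx])
    ((h.cen _ b fun v hv hE => ?_).resolve_left a), a⟩
  obtain ⟨y, hy, rfl⟩ := S.π_surj v
  obtain ⟨l1, -, l3⟩ := h4 y hy ((h.nw.mem_E S hy).1 hE)
  have := h.P_le 0 (show _ ∈ S.pre' (W 0) from ⟨l1, by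
    rcases l3 with l | l <;> rw [l]; exacts [hv, add_mem hv h.sb]⟩) x hx
  exact S.N_eq_zero.1 (S.N_π_of_comm b hy (by
    rw [← (MulAut.conj g⁻¹).injective.eq_iff]; simpa [mul_assoc] using this))

theorem exists_swap' : ∃ g : G, g * z * g⁻¹ = s ∧ g * s * g⁻¹ = z ∧ St S s g ∧ St S s g⁻¹ ∧
    MulAut.conj g • JJ S W 0 = JJ S W 0 := by
  obtain ⟨x, hx, ex⟩ := h.nw.exists_x
  obtain ⟨y, hy, ey⟩ := h.nw.symm.exists_x
  have fx : x * z * x⁻¹ = z := by rw [S.pre.central x hx, mul_inv_cancel_right]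
  have fy : y * s * y⁻¹ = s := by rw [h.nw.ps.central y hy, mul_inv_cancel_right]
  have c : ∀ a b c : G, a * (b * c) * a⁻¹ = a * b * a⁻¹ * (a * c * a⁻¹) := fun a b c => by group
  have c' : ∀ w, x * y * x * w * (x * y * x)⁻¹ = x * (y * (x * w * x⁻¹) * y⁻¹) * x⁻¹ :=
    fun w => by group
  have h1 : x * y * x * z * (x * y * x)⁻¹ = s := by
    rw [c', fx, ey, c, ex, fx, mul_assoc, h.nw.comm, ← mul_assoc, S.pre.mul_self, one_mul]
  have h2 : x * y * x * s * (x * y * x)⁻¹ = z := by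
    rw [c', ex, c y z, ey, fy, h.nw.comm, mul_assoc z, h.nw.ss, mul_one, fx]
  have h3 := ((h.st (.inl hx)).mul (h.st (.inr hy))).mul (h.st (.inl hx))
  have h4 : St S s (x * y * x)⁻¹ := by
    rw [mul_inv_rev, mul_inv_rev]
    exact (h.st (.inl (inv_mem hx))).mul ((h.st (.inr (inv_mem hy))).mul (h.st (.inl (inv_mem hx))))
  have gz : x * y * x * (x * y * x) ∈ qOf z := by
    have k : ∀ {w}, w ∈ zpowers z → y * w * y⁻¹ ∈ qOf z := by
      rintro _ ⟨n, rfl⟩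
      simp only [← conj_zpow, ey]
      exact zpow_mem (mul_mem h.nw.mem S.pre.mem) n
    rw [show x * y * x * (x * y * x) = x * (y * (x * x) * y⁻¹ * (y * y)) * x by group]
    exact mul_mem (mul_mem hx (mul_mem (k (S.pre.sq_mem x hx))
      (zpowers_le.2 h.nw.mem (h.nw.ps.sq_mem y hy)))) hx
  refine ⟨_, h1, h2, h3, h4, ?_⟩
  generalize x * y * x = g at *
  have a : ∀ x ∈ S.pre' (W 0), g * x * g⁻¹ ∈ JJ S W 0 := fun x hx => by
    by_cases k : x ∈ qOf s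
    · obtain ⟨l1, -, l3⟩ := h3 x hx.1 k
      exact h.P_le 0 ⟨l1, by rcases l3 with l | l <;> rw [l]; exacts [hx.2, add_mem hx.2 h.sb]⟩
    · exact (h.swap_aux h2 h4 hx k).1
  obtain ⟨v, hv, e⟩ := SetLike.not_le_iff_exists.1 h.not_le_E
  obtain ⟨x, hx, rfl⟩ := S.π_surj v
  have b := h.swap_aux h2 h4 (x := x) ⟨hx, hv⟩ (mt (h.nw.mem_E S hx).2 e)
  have gx := conjP (qOf_le z gz) (map_ρ_mem gz (W 0)) (x := x) ⟨hx, hv⟩
  refine eq_of_le_of_card_ge (fun w hw => ?_) (Nat.card_congr (equivSMul _ _).toEquiv).le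
  rw [mem_cj] at hw
  rw [show w = g * (g⁻¹ * w * g) * g⁻¹ by group]
  generalize g⁻¹ * w * g = w at hw
  by_cases k : w ∈ qOf z
  · exact a w ⟨k, (h.memP k).1 hw⟩
  have := mul_mem (h.P_le 0 gx) (a _ (h.J_cases b.1 b.2 hw k))
  convert this using 1; group

theorem exists_swap : ∃ g : G, g * z * g⁻¹ = s ∧ g * s * g⁻¹ = z ∧
    (∀ x ∈ qOf z, x ∈ qOf s → g * x * g⁻¹ ∈ qOf z ∧ g * x * g⁻¹ ∈ qOf s ∧
      (S.π (g * x * g⁻¹) = S.π x ∨ S.π (g * x * g⁻¹) = S.π x + S.π s)) ∧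
    MulAut.conj g • centralizer (S.pre' (W 0) : Set G) = centralizer (S.pre' (W 0) : Set G) := by
  obtain ⟨g, h1, h2, h3, -, h4⟩ := h.exists_swap'
  exact ⟨g, h1, h2, h3, h4⟩

theorem orb0 {w : G} (hw : NW z w) : ∃ c ∈ C, c * s * c⁻¹ = w := by
  obtain ⟨c, hc, rfl⟩ := h.orbit hw
  obtain ⟨k, hk, e⟩ := h.fac c hc
  have n := h.nw.conj' (h.le hk)
  rw [S.ρ_π _ hc _ h.nw.mem, S.ρ_π _ (h.le hk) _ h.nw.mem, S.π_eq_iff n.mem hw.mem] at e
  rcases e with e | e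
  · exact ⟨k, hk, e.symm⟩
  · obtain ⟨x, hx, f⟩ := n.exists_x
    exact ⟨x * k, mul_mem (h.QC hx) hk, by rw [e, n.comm, ← f]; group⟩

/-- The neighbours of `z` in `J i`. -/
theorem orb {i : Fin 3} {w : G} (hw : NW z w) (k : S.π w ∈ W i) :
    ∃ c ∈ C, c * s * c⁻¹ = w ∧ (W 0).map (S.ρ c) = W i := by
  obtain ⟨c, hc, rfl⟩ := h.orb0 hw
  exact ⟨c, hc, rfl, h.perm_of hc h.sb (h.nw.π_ne S) (by rwa [S.ρ_π _ (h.le hc) _ h.nw.mem])⟩

theorem exists_τ : ∃ g : G, MulAut.conj g • JJ S W 0 = JJ S W 0 ∧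
    g * z * g⁻¹ ∈ JJ S W 0 ∧ g * z * g⁻¹ ∉ qOf z := by
  obtain ⟨g, h1, h2, -, h4, h5⟩ := h.exists_swap'
  obtain ⟨_, ⟨hv, w, hw, rfl⟩, e⟩ :=
    Set.not_subset.1 fun k => h.not_le_E (h.span.trans (Submodule.span_le.2 k))
  have b := h.swap_aux h2 h4 (x := w) ⟨hw.mem, hv⟩ (mt (h.nw.mem_E S hw.mem).2 e)
  obtain ⟨c, hc, rfl, f⟩ := h.orb hw hv
  refine ⟨g * c * g, ?_, by convert b using 2 <;> rw [← h1] <;> group⟩
  rw [map_mul, map_mul, mul_smul, mul_smul, h5, h.conjJ (h.le hc) f, h5]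

theorem J_sq {x : G} (hx : x ∈ JJ S W 0) : x * x = 1 := by
  by_cases k : x ∈ qOf z
  · exact h.P_sq ⟨k, (h.memP k).1 hx⟩
  obtain ⟨g, -, a, b⟩ := h.exists_τ
  have c := h.J_cases a b hx k
  have d := (S.pre.qOf_of_conj ⟨g, rfl⟩).mul_self
  generalize g * z * g⁻¹ = τ at *
  rw [← mul_inv_cancel_left τ x]
  generalize τ⁻¹ * x = p at c
  rw [mul_assoc, ← mul_assoc p, a p c, mul_assoc, h.P_sq c, mul_one, d]

end Loc

end Cfsg.Lib.X9T
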