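import Cfsg.Agent.X9T.B1
import Cfsg.Agent.X9O.B2

/-! The axioms of the polar space at the base flag. -/

set_option autoImplicit false

universe u v

namespace Cfsg.Lib.X9T

open Subgroup Cfsg.Lib.Local Cfsg.Lib.Solv Module Cfsg.Lib.Spor Cfsg.Lib.LX
open Cfsg.Lib.X9O (Ty cj_inj cj_eq_iff nw_cj cj_self JJ St map_ρ_mul map_ρ_mem map_ρ_inv J_le J_fix
  conjP nw_of_π)
open scoped Pointwise commutatorElement

variable {G : Type u} [Group G] {s t : G} {V : Type*} [AddCommGroup V] [Module (ZMod 2) V]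
  {W : Fin 3 → Submodule (ZMod 2) V} {C : Subgroup G}

namespace Loc

section

variable {z : G} {S : Sh (qOf z) z V} (h : Loc S s t W C)
include h

theorem W_inj {i j : Fin 3} (e : W i ≤ W j) : i = j := by_contra fun n => by
  obtain ⟨v, hv, h0⟩ := h.exW i
  exact h0 (h.disj i j n v hv (e hv))

theorem ex_u : ∃ u ∈ S.E s, (∀ i, i ≠ 0 → ∃ v ∈ W i, v = u ∨ v = u + S.π s) ∧
    ∀ y ∈ qOf z, S.π y = u ∨ S.π y = u + S.π s → NW z y := by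
  obtain ⟨c, hc, e1, e2⟩ := h.e1
  replace hc := h.le hc
  have n := h.nw.conj' hc
  rw [S.ρ_π _ hc _ h.nw.mem] at e1 e2
  have e3 : S.ρ t (S.π (c * s * c⁻¹)) = S.π (c * s * c⁻¹) + S.π s := by
    rw [S.ρ_eq, (h.nw.N_E S h.tB e2).resolve_left fun k =>
      n.π_ne S (h.disj 1 0 (by decide) _ e1 ((h.ker _).2 k))]
  refine ⟨_, e2, fun i hi => ?_, fun y hy k => k.elim (fun k => nw_of_π n hy k.symm) fun k =>
    nw_of_π (S := S) (n.conj' h.tC) hy (by rw [← S.ρ_π _ h.tC _ n.mem, e3, k])⟩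
  obtain rfl | rfl : i = 1 ∨ i = 2 := by omega
  exacts [⟨_, e1, .inl rfl⟩, ⟨_, h.t12 ▸ Submodule.mem_map_of_mem e1, .inr e3⟩]

theorem nw_s {i : Fin 3} (hi : i ≠ 0) {y : G} (n : NW z y) (hs : y ∈ qOf s) (hy : S.π y ∈ W i) :
    NW s y := ⟨h.nw.ps, h.nw.cj.symm.trans n.cj, hs, fun e =>
  h.nw.π_ne S (h.disj i 0 hi _ (e ▸ hy) h.sb)⟩

theorem small {i : Fin 3} (hi : i ≠ 0) {u v : V} (hu : u ∈ W i) (hv : v ∈ W i) (eu : u ∈ S.E s)
    (ev : v ∈ S.E s) (n : v ≠ 0) : u = 0 ∨ u = v := by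
  have a := (h.nw.N_E S h.tB ev).resolve_left fun k => n (h.disj i 0 hi _ hv ((h.ker _).2 k))
  refine (h.nw.N_E S h.tB eu).imp (fun k => h.disj i 0 hi _ hu ((h.ker _).2 k)) fun k => ?_
  have := h.disj i 0 hi _ (add_mem hu hv) ((h.ker _).2 (by rw [map_add, a, k, add_self']))
  rw [← add_zero u, ← add_self' v, ← add_assoc, this, zero_add]

variable [Finite V]

theorem J_inj {i j : Fin 3} (e : JJ S W i = JJ S W j) : i = j := h.W_inj fun v hv => by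
  obtain ⟨x, hx, rfl⟩ := S.π_surj v
  exact (h.memP hx).1 (e.le (h.P_le i ⟨hx, hv⟩))

theorem meet {i : Fin 3} (hi : i ≠ 0) {x : G} (h0 : x ∈ JJ S W 0) (h1 : x ∈ JJ S W i) :
    x = 1 ∨ x = z := by
  have k : x ∈ qOf z := (h.J_Q h0).resolve_right fun k => by
    obtain ⟨v, hv, n⟩ := h.exW i
    exact n (h.moves k hi hv (by rwa [J_fix h1 hv]))
  exact (S.π_eq_zero' k).1 (h.disj i 0 hi _ ((h.memP k).1 h1) ((h.memP k).1 h0))

theorem move {i : Fin 3} (hi : i ≠ 0) {a : G} (h0 : a ∈ JJ S W 0) (n : a ∉ qOf z) :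
    MulAut.conj a • JJ S W i ≠ JJ S W i := fun e => by
  obtain ⟨j, hj⟩ := h.perm a (h.J_C h0) i
  obtain rfl := h.J_inj (e.symm.trans (h.conjJ (J_le h0) hj))
  obtain ⟨v, hv, n'⟩ := h.exW i
  exact n' (h.moves ((h.J_Q h0).resolve_left n) hi hv (hj ▸ Submodule.mem_map_of_mem hv))

theorem mem_of_norm {g : G} (hg : g ∈ centralizer ({z} : Set G))
    (e : MulAut.conj g • JJ S W 0 = JJ S W 0) : g ∈ C := by_contra fun n => by
  obtain ⟨v, hv, k⟩ := (h.out g hg n).2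
  obtain ⟨x, hx, rfl⟩ := S.π_surj v
  rw [S.ρ_π _ hg _ hx] at k
  exact k ((h.memP (S.conj_mem hg hx)).1 (e.le (cj_mem (h.P_le 0 ⟨hx, hv⟩))))

omit [Finite V] in
theorem mem_of_disj {g : G} (hg : g ∈ centralizer ({z} : Set G))
    (e : ∀ x ∈ JJ S W 0, x ∈ MulAut.conj g • JJ S W 0 → x = 1 ∨ x = z) : g ∈ C :=
  by_contra fun n => by
    obtain ⟨v, hv, n0, k⟩ := (h.out g hg n).1
    obtain ⟨x, hx, rfl⟩ := S.π_surj v
    refine n0 ((S.ρ_eq_zero hg).1 ?_)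
    rw [S.ρ_π _ hg _ hx] at k ⊢
    exact (S.π_eq_zero' (S.conj_mem hg hx)).2
      (e _ (h.P_le 0 ⟨S.conj_mem hg hx, k⟩) (cj_mem (h.P_le 0 ⟨hx, hv⟩)))

variable [Finite G]

theorem cardJ : Nat.card (JJ S W 0) = 64 := by
  obtain ⟨g, -, a, b⟩ := h.exists_τ
  generalize g * z * g⁻¹ = τ at a b
  have e := S.card_of_mem (U := S.pre' (W 0)) (fun _ hx => hx.1) (S.z_mem_pre' _)
  rw [S.img_pre', h.dimW] at e
  rw [← ((S.pre' (W 0)).subgroupOf (JJ S W 0)).card_mul_index,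
    Nat.card_congr (subgroupOfEquivOfLe (h.P_le 0)).toEquiv, e,
    index_eq_two_iff'.2 ⟨⟨τ, a⟩⁻¹, fun x => ?_⟩]
  · rfl
  by_cases k : (x : G) ∈ qOf z
  · exact .inr ⟨⟨k, (h.memP k).1 x.2⟩, fun m =>
      b (inv_mem_iff.1 ((Subgroup.mul_mem_cancel_right _ k).1 m.1))⟩
  · exact .inl ⟨h.J_cases a b x.2 k, fun m => k m.1⟩

end

variable {Λ : Type v} [MulAction G Λ] {Z : Ln G Λ} {S : Sh (qOf (Z.r Z.o)) (Z.r Z.o) V}
  (h : Loc S s t W C) (hC : ∀ g : G, g • Z.o = Z.o ↔ g ∈ C)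
include h

theorem fg_mem {d : Λ} {K : Subgroup G} (k : Fg Z (JJ S W 0) d K) : Z.r d ∈ K := by
  obtain ⟨g, rfl, rfl⟩ := k
  rw [Z.hr]
  exact cj_mem (h.zJ 0)

include hC

theorem fg_iff {L : Subgroup G} : Fg Z (JJ S W 0) Z.o L ↔ ∃ i, L = JJ S W i := by
  refine ⟨?_, ?_⟩
  · rintro ⟨g, e, rfl⟩
    have hg := (hC g).1 e
    obtain ⟨j, hj⟩ := h.perm g hg 0
    exact ⟨j, h.conjJ (h.le hg) hj⟩
  · rintro ⟨i, rfl⟩
    obtain ⟨c, hc, e⟩ := h.exi i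
    exact ⟨c, (hC c).2 hc, h.conjJ (h.le hc) e⟩

variable [Finite V]

theorem inj {w : Λ} (k : Fg Z (JJ S W 0) w (JJ S W 0)) (e : Z.r w = Z.r Z.o) : w = Z.o := by
  obtain ⟨g, rfl, f⟩ := k
  rw [Z.hr] at e
  exact (hC g).2 (h.mem_of_norm (mem_C.2 (mul_inv_eq_iff_eq_mul.1 e)) f)

variable [Finite G]

omit hC in
theorem nwJ {i : Fin 3} {w : G} (n : NW (Z.r Z.o) w) (hw : w ∈ JJ S W i) :
    ∃ l, Z.r l = w ∧ Fg Z (JJ S W 0) l (JJ S W i) := by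
  obtain ⟨c, hc, rfl, e⟩ := h.orb n ((h.memP n.mem).1 hw)
  obtain ⟨g, h1, -, -, h2⟩ := h.exists_swap
  exact ⟨_, by rw [Z.hr, ← h1]; group, c * g, rfl, by rw [← cj_cj, h2, h.conjJ (h.le hc) e]⟩

theorem plane0 {w : Λ} {L M : Subgroup G} (hw : Z.r w = s) (hK : Fg Z (JJ S W 0) w (JJ S W 0))
    (hL : Fg Z (JJ S W 0) Z.o L) (hM : Fg Z (JJ S W 0) w M)
    (nL : L ≠ JJ S W 0) (nM : M ≠ JJ S W 0) :
    ∃ y, NW (Z.r Z.o) y ∧ NW s y ∧ y ∈ L ∧ y ∈ M ∧ ∀ x ∈ L, x ∈ qOf (Z.r Z.o) → x ∈ qOf s →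
      x = 1 ∨ x = Z.r Z.o ∨ x = y ∨ x = y * Z.r Z.o := by
  obtain ⟨i, rfl⟩ := (h.fg_iff hC).1 hL
  have hi : i ≠ 0 := by rintro rfl; exact nL rfl
  obtain ⟨g, h1, -, h3, h5⟩ := h.exists_swap
  have hg := h.inj hC (w := g⁻¹ • w) (Fg.cj_iff'.1 (h5.symm ▸ hK)) (by rw [Z.hr', hw, ← h1]; group)
  obtain ⟨j, e⟩ := (h.fg_iff hC).1 (hg ▸ hM.cj g⁻¹)
  rw [cj_eq_iff] at e
  have hj : j ≠ 0 := by rintro rfl; exact nM (e.trans h5)
  obtain ⟨u, hu, k1, k2⟩ := h.ex_u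
  obtain ⟨v, hv, f⟩ := k1 j hj
  obtain ⟨x, hx, rfl⟩ := S.π_surj v
  obtain ⟨l1, l2, l3⟩ := h3 x hx ((h.nw.mem_E S hx).1 (by
    rcases f with f | f <;> rw [f]; exacts [hu, add_mem hu (h.nw.s_mem_E S)]))
  have k : g * x * g⁻¹ ∈ M := e ▸ cj_mem (h.P_le j ⟨hx, hv⟩)
  generalize g * x * g⁻¹ = y at l1 l2 l3 k
  obtain ⟨v, hv', f'⟩ := k1 i hi
  have a : ∀ y ∈ qOf (Z.r Z.o), y ∈ qOf s → y ∈ M → S.π y = v →
      ∃ y, NW (Z.r Z.o) y ∧ NW s y ∧ y ∈ JJ S W i ∧ y ∈ M ∧ ∀ x ∈ JJ S W i, x ∈ qOf (Z.r Z.o) →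
        x ∈ qOf s → x = 1 ∨ x = Z.r Z.o ∨ x = y ∨ x = y * Z.r Z.o := by
    rintro y l1 l2 k rfl
    have n := k2 y l1 f'
    refine ⟨y, n, h.nw_s hi n l2 hv', h.P_le i ⟨l1, hv'⟩, k, fun x x1 x2 x3 => or_assoc.1 ?_⟩
    exact (h.small hi ((h.memP x2).1 x1) hv' ((h.nw.mem_E S x2).2 x3) ((h.nw.mem_E S l1).2 l2)
      (n.π_ne S)).imp (S.π_eq_zero' x2).1 fun e => (S.π_eq_iff l1 x2).1 e.symm
  have b : S.π y = v ∨ S.π y + S.π s = v := by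
    rcases f with f | f <;> rcases f' with f' | f' <;> rcases l3 with l | l <;>
      simp [l, f, f', add_add_cancel'']
  exact b.elim (a y l1 l2 k) fun b => a (y * s) (mul_mem l1 h.nw.mem) (mul_mem l2 h.nw.ps.mem)
    (mul_mem k (hw ▸ h.fg_mem hM)) (by rw [S.π_mul y l1 s h.nw.mem, b])

omit hC in
theorem ex_out : ∃ w, Fg Z (JJ S W 0) w (JJ S W 0) ∧ Z.r w ∉ qOf (Z.r Z.o) := by
  obtain ⟨g, a, -, b⟩ := h.exists_τ
  exact ⟨_, ⟨g, rfl, a⟩, by rwa [Z.hr]⟩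

omit hC in
theorem gen : closure (Z.r '' {w | Fg Z (JJ S W 0) w (JJ S W 0)}) = JJ S W 0 := by
  refine le_antisymm ((closure_le _).2 (by rintro _ ⟨w, hw, rfl⟩; exact h.fg_mem hw)) fun x hx => ?_
  have a : S.pre' (W 0) ≤ closure (Z.r '' {w | Fg Z (JJ S W 0) w (JJ S W 0)}) := fun x hx =>
    S.mem_of_π_mem_img (Subgroup.subset_closure (Set.mem_image_of_mem _ (Fg.base _ _))) hx.1
      (h.span.trans (Submodule.span_le.2 (by
        rintro _ ⟨hv, w, n, rfl⟩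
        obtain ⟨l, e, k⟩ := h.nwJ n (h.P_le 0 ⟨n.mem, hv⟩)
        exact S.π_mem_img (Subgroup.subset_closure ⟨l, k, e⟩) n.mem)) hx.2)
  by_cases k : x ∈ qOf (Z.r Z.o)
  · exact a ⟨k, (h.memP k).1 hx⟩
  obtain ⟨τ, c, e⟩ := h.ex_out
  simpa using mul_mem (Subgroup.subset_closure
    (show Z.r τ ∈ Z.r '' {w | Fg Z (JJ S W 0) w (JJ S W 0)} from ⟨τ, c, rfl⟩))
    (a (h.J_cases (h.fg_mem c) e hx k))

omit hC in
theorem faith {x : G} (hx : x ∈ JJ S W 0)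
    (k : ∀ w, Fg Z (JJ S W 0) w (JJ S W 0) → x ∈ qOf (Z.r w)) : x = 1 := by
  have xQ := k _ (Fg.base _ _)
  have a : ∀ u, NW (Z.r Z.o) u → S.π u ∈ W 1 → S.b (S.π u) (S.π x) = 0 := fun u n hu => by
    obtain ⟨c, hc, rfl, e⟩ := h.orb n hu
    obtain ⟨j, hj⟩ := h.perm _ (inv_mem hc) 0
    replace hc := h.le hc
    have e' := map_ρ_inv (inv_mem hc) hj
    rw [inv_inv] at e'
    have j0 : j ≠ 0 := by
      rintro rfl
      exact absurd (h.W_inj (e.symm.trans e').le) (by decide)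
    obtain ⟨u, hu, k1, k2⟩ := h.ex_u
    obtain ⟨v, hv, f⟩ := k1 j j0
    obtain ⟨y, hy, rfl⟩ := S.π_surj v
    have n1 := k2 y hy f
    have n2 := h.nw_s j0 n1 ((h.nw.mem_E S hy).1 (by
      rcases f with f | f <;> rw [f]; exacts [hu, add_mem hu (h.nw.s_mem_E S)])) hv
    have n3 := n1.conj' hc
    obtain ⟨l, p, q⟩ := h.nwJ n3 (h.P_le 0 (conjP hc e' ⟨hy, hv⟩))
    exact (S.b_π _ n.mem _ xQ).2 (n3.E_comm n.mem (n2.conj c).zs xQ (p ▸ k _ q))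
  obtain ⟨c, hc, e⟩ := h.exi 1
  replace hc := h.le hc
  have b : S.π x ∈ W 1 := h.perpW 1 ▸ S.mem_perp.2 fun v hv => by
    obtain ⟨u, hu, rfl⟩ := e.ge hv
    refine (h.span.trans (Submodule.span_le.2 ?_ :
      _ ≤ LinearMap.ker ((S.b.flip (S.π x)).comp (S.ρ c)))) hu
    rintro _ ⟨hv, w, n, rfl⟩
    have := a _ (n.conj' hc) (conjP hc e ⟨n.mem, hv⟩).2
    rwa [← S.ρ_π _ hc _ n.mem] at this
  refine ((S.π_eq_zero' xQ).1 (h.disj 1 0 (by decide) _ b ((h.memP xQ).1 hx))).resolve_right ?_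
  rintro rfl
  obtain ⟨τ, c, e⟩ := h.ex_out
  exact e (NW.zs ⟨S.pre.qOf_of_conj (isConj_iff.1 c.isConj), c.isConj.symm, k τ c,
    fun f => e (f ▸ xQ)⟩)

theorem geo : Geo Z (JJ S W 0) := At.geo
  { pre := S.pre
    mem := h.zJ 0
    sq := fun _ => h.J_sq
    card := h.cardJ
    three := ⟨JJ S W 1, JJ S W 2, (h.fg_iff hC).2 ⟨_, rfl⟩, (h.fg_iff hC).2 ⟨_, rfl⟩,
      fun e => absurd (h.J_inj e) (by decide), fun e => absurd (h.J_inj e) (by decide),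
      fun e => absurd (h.J_inj e) (by decide), fun F hF => by
        obtain ⟨i, rfl⟩ := (h.fg_iff hC).1 hF
        obtain rfl | rfl | rfl : i = 0 ∨ i = 1 ∨ i = 2 := by omega
        exacts [.inl rfl, .inr (.inl rfl), .inr (.inr rfl)]⟩
    meet := fun a n b c => by
      obtain ⟨i, rfl⟩ := (h.fg_iff hC).1 a
      exact h.meet (by rintro rfl; exact n rfl) b c
    idx := fun a ha b hb na nb => h.mul ((h.J_Q ha).resolve_left na) ((h.J_Q hb).resolve_left nb)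
    move := fun a n b c => by
      obtain ⟨i, rfl⟩ := (h.fg_iff hC).1 a
      exact h.move (by rintro rfl; exact n rfl) b c
    norm := fun ha => h.conjJ (qOf_le _ ha) (map_ρ_mem ha _)
    inj := h.inj hC
    of_nw := h.nwJ
    typ := by
      rintro _ _ ⟨g, rfl, rfl⟩ e k
      rw [Z.hr] at e
      exact (hC g).2 (h.mem_of_disj (mem_C.2 (mul_inv_eq_iff_eq_mul.1 e)) k)
    plane := fun {w L M} n hw hL hM nL nM => by
      obtain ⟨c, hc, p, e⟩ := h.orb n ((h.memP n.mem).1 (h.fg_mem hw))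
      have f := h.conjJ (h.le hc) e
      have o := (hC _).2 (inv_mem hc)
      replace hc := h.le hc
      obtain ⟨y, a1, a2, a3, a4, a5⟩ := h.plane0 hC (w := c⁻¹ • w) (by rw [Z.hr', ← p]; group)
        (Fg.cj_iff'.1 (f.symm ▸ hw)) (hL.cj' o) (hM.cj c⁻¹)
        (fun k => nL ((cj_eq_iff.1 k).trans f)) fun k => nM ((cj_eq_iff.1 k).trans f)
      refine ⟨_, a1.conj' hc, p ▸ a2.conj c, by simpa using (mem_cj c⁻¹).1 a3,
        by simpa using (mem_cj c⁻¹).1 a4, fun x x1 x2 x3 => ?_⟩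
      have := a5 (c⁻¹ * x * c) (by simpa using cj_mem (g := c⁻¹) x1)
        (by simpa using S.conj_mem (inv_mem hc) x2) ((mem_Q_cj c).1 (p ▸ x3))
      have q : c * Z.r Z.o * c⁻¹ = Z.r Z.o := by rw [mem_C.1 hc, mul_inv_cancel_right]
      rw [show x = c * (c⁻¹ * x * c) * c⁻¹ by group]
      rcases this with e | e | e | e <;> rw [e]
      exacts [.inl (by group), .inr (.inl q), .inr (.inr (.inl rfl)),
        .inr (.inr (.inr (by conv_rhs => rw [← q]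
                             group)))]
    line := fun n => by
      obtain ⟨c, hc, rfl⟩ := h.orb0 n
      obtain ⟨l, p, q⟩ := h.nwJ h.nw (h.P_le 0 h.sP)
      exact ⟨_, _, by rw [Z.hr, p], (Fg.base _ _).cj' ((hC c).2 hc), q.cj c⟩
    ex_nw := ⟨s, h.P_le 0 h.sP, h.nw⟩
    ex_out := h.ex_out
    faith := fun _ => h.faith
    gen := h.gen }

end Loc

end Cfsg.Lib.X9T
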