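import Cfsg.Agent.X9T.Defs

/-! # The polar space axioms -/

set_option autoImplicit false

universe u v

namespace Cfsg.Lib.X9T

open Subgroup Cfsg.Lib.Local Cfsg.Lib.Solv Module Cfsg.Lib.Spor Cfsg.Lib.LX
open Cfsg.Lib.X9O (Ty cj_inj cj_eq_iff nw_cj cj_self)
open scoped Pointwise commutatorElement

variable {G : Type u} [Group G] {Λ : Type v} [MulAction G Λ] {Z : Ln G Λ} {d a b w x : Λ}
  {p q g : G} {J K L M F : Subgroup G}

theorem At.comm (h : At Z J d K) (ha : p ∈ K) (hb : q ∈ K) : p * q = q * p := by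
  rw [← mul_eq_one_iff_eq_inv.1 (h.sq _ (mul_mem hb ha)) |>.symm, mul_inv_rev,
    inv_eq_of_mul_eq_one_right (h.sq _ ha), inv_eq_of_mul_eq_one_right (h.sq _ hb)]

namespace Geo

variable (H : Geo Z J)
include H

theorem mem (h : Fg Z J d K) : Z.r d ∈ K := (H d K h).mem

theorem pre (h : Fg Z J d K) : PreLX (qOf (Z.r d)) (Z.r d) := (H d K h).pre

theorem comm (h : Fg Z J d K) (ha : p ∈ K) (hb : q ∈ K) : p * q = q * p := (H d K h).comm ha hb

theorem fix' (h : Fg Z J d K) (e : MulAut.conj g • K = K) (c : g * Z.r d = Z.r d * g) :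
    g • d = d := (H d K h).inj (e ▸ h.cj g) (by rw [Z.hr, c, mul_inv_cancel_right])

theorem fix (h : Fg Z J d K) (hp : p ∈ K) : p • d = d :=
  H.fix' h (cj_self hp) (H.comm h hp (H.mem h))

theorem uniq (h : Fg Z J d K) (h' : Fg Z J d L) (n : K ≠ L) (h1 : Fg Z J x K) (h2 : Z.r x ∈ L) :
    x = d := (H d K h).inj h1
      (((H d K h).meet h' n (H.mem h1) h2).resolve_left (H.pre h1).ne_one)

theorem other (h : Fg Z J d K) : ∃ L, Fg Z J d L ∧ L ≠ K := by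
  obtain ⟨L, -, a, -, b, -⟩ := (H d K h).three
  exact ⟨L, a, b⟩

/-- The third point of a line. -/
theorem third_pt (h : Fg Z J d K) (h' : Fg Z J d L) (n : K ≠ L) :
    ∃ M, Fg Z J d M ∧ M ≠ K ∧ M ≠ L ∧ ∀ F, Fg Z J d F → F = K ∨ F = L ∨ F = M := by
  obtain ⟨A, B, a, b, c, e, f, k⟩ := (H d K h).three
  rcases k L h' with rfl | rfl | rfl
  · exact (n rfl).elim
  · exact ⟨B, b, e, f.symm, k⟩
  · exact ⟨A, a, c, f, fun F hF => by have := k F hF; tauto⟩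

theorem nw' (h : Fg Z J d K) (h' : Fg Z J w L) (m : Z.r w ∈ qOf (Z.r d)) (n : Z.r w ≠ Z.r d) :
    NW (Z.r d) (Z.r w) := ⟨H.pre h, h.isConj.symm.trans h'.isConj, m, n⟩

theorem nw (h : Fg Z J d K) (h' : Fg Z J w K) (m : Z.r w ∈ qOf (Z.r d)) (n : w ≠ d) :
    NW (Z.r d) (Z.r w) := H.nw' h h' m fun e => n ((H d K h).inj h' e)

theorem plane (h : Fg Z J d K) (n : NW (Z.r d) (Z.r w)) (hw : Fg Z J w K) (hL : Fg Z J d L)
    (hM : Fg Z J w M) (nL : L ≠ K) (nM : M ≠ K) :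
    ∃ x, NW (Z.r d) (Z.r x) ∧ Fg Z J x L ∧ Fg Z J x M := by
  obtain ⟨y, p, q, r, s, k⟩ := (H d K h).plane n hw hL hM nL nM
  obtain ⟨x, rfl, i⟩ := (H d L hL).of_nw p r
  obtain ⟨x', e, j⟩ := (H w M hM).of_nw q s
  refine ⟨x, p, i, (H x L i).typ j e (fun a a1 a2 => ?_) ▸ j⟩
  have nd : w ≠ d := fun e => n.ne (congrArg Z.r e)
  have dM : Z.r d ∉ M := fun c => nd (H.uniq hw hM nM.symm h c).symm
  by_cases c : MulAut.conj a • K = K
  · rcases k a a1 (by_contra fun f => (H d L hL).move h nL a1 f c)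
      (by_contra fun f => (H w M hM).move hw nM a2 f c) with f | f | f | f
    exacts [.inl f, (dM (f ▸ a2)).elim, .inr f, (dM ((M.mul_mem_cancel_left s).1 (f ▸ a2))).elim]
  · exact (nd (H.uniq h (h.cj' (H.fix hL a1)) (Ne.symm c) hw (H.mem (hw.cj' (H.fix hM a2))))).elim

variable [Finite G]

theorem symm_mem (h : Fg Z J d K) (h' : Fg Z J w L) (m : Z.r w ∈ qOf (Z.r d)) :
    Z.r d ∈ qOf (Z.r w) := by
  by_cases n : Z.r w = Z.r d
  · exact n ▸ m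
  · exact (H.nw' h h' m n).zs

omit [Finite G] in
theorem noncomm (h : Fg Z J a K) (h' : Fg Z J a L) (n : K ≠ L) (hb : p ∈ K) (hc : q ∈ L)
    (nb : p ∉ qOf (Z.r a)) (nc : q ∉ qOf (Z.r a)) : p * q ≠ q * p := fun e => by
  have := (H a L h').meet (h'.cj' (H.fix h hb)) ((H a K h).move h' n hb nb).symm hc (by
    simpa [e] using cj_mem (g := p) hc)
  rcases this with rfl | rfl
  exacts [nc (one_mem _), nc (H.pre h).mem]

omit [Finite G] in
theorem tri (h : Fg Z J a K) (h' : Fg Z J a L) (k : Fg Z J b K) (k' : Fg Z J b M)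
    (l : Cl Z J L M) (n1 : K ≠ L) (n2 : K ≠ M) (n3 : L ≠ M) (n : b ≠ a) : NW (Z.r a) (Z.r b) := by
  obtain ⟨c, l, l'⟩ := l
  by_contra e
  have nb : Z.r b ∉ qOf (Z.r a) := fun m => e (H.nw h k m n)
  have nc : Z.r c ∈ qOf (Z.r a) := by
    by_contra nc
    exact H.noncomm h h' n1 (H.mem k) (H.mem l) nb nc (H.comm k' (H.mem k') (H.mem l'))
  obtain ⟨x, p, q, r⟩ := H.plane h'
    (H.nw h' l nc fun e => n (H.uniq h (e ▸ l') n2 k (H.mem k'))) l h l' n1 n3.symm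
  exact e (H.uniq k k' n2 q (H.mem r) ▸ p)

omit [Finite G] in
theorem third (h : Fg Z J d K) (h' : Fg Z J d L) (h'' : Fg Z J d M) (n : K ≠ L)
    (k : Cl Z J F K) (k' : Cl Z J F L) : Cl Z J F M := by
  by_cases e : F = K
  · exact ⟨d, e ▸ h, h''⟩
  by_cases e' : F = L
  · exact ⟨d, e' ▸ h', h''⟩
  by_cases e'' : M = K
  · exact e'' ▸ k
  obtain ⟨a, p, q⟩ := k
  by_cases f : a = d
  · exact ⟨d, f ▸ p, h''⟩
  obtain ⟨x, -, r, s⟩ := H.plane h
    (H.tri h h' q p k'.symm n (Ne.symm e) (Ne.symm e') f) q h'' p e'' e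
  exact ⟨x, s, r⟩

theorem trace1 (n : ¬ Cl Z J K F) (h : Fg Z J d K) (h' : Fg Z J d L) (k : Cl Z J L F)
    (hw : NW (Z.r d) (Z.r w)) (hK : Fg Z J w K) : ∃ M, Fg Z J w M ∧ Cl Z J M F := by
  have nL : L ≠ K := fun e => n (e ▸ k)
  obtain ⟨a, p, q⟩ := k
  have na : Z.r a ∉ qOf (Z.r d) := fun c => by
    obtain ⟨x, -, r, s⟩ := H.plane h' (H.nw h' p c fun e => n ⟨d, h, e ▸ q⟩) p h q
      nL.symm fun e => n ⟨d, h, e ▸ h'⟩
    exact n ⟨x, r, s⟩
  have key : ∀ {x M}, NW (Z.r d) (Z.r x) → Fg Z J x L → Fg Z J x M → Fg Z J w M →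
      Z.r x ∈ qOf (Z.r a) → ∃ M, Fg Z J w M ∧ Cl Z J M F := fun {x M} r s t u v => by
    obtain ⟨y, -, i, j⟩ := H.plane p (H.nw p s v fun e => na (e ▸ r.mem)) s q t
      (fun e => n ⟨d, h, e ▸ h'⟩) fun e =>
        hw.ne (congrArg Z.r (H.uniq h h' nL.symm hK (e ▸ H.mem u)))
    exact ⟨M, u, y, j, i⟩
  obtain ⟨M, hM, nM⟩ := H.other hK
  obtain ⟨x, r, s, t⟩ := H.plane h hw hK h' hM nL nM
  by_cases c : Z.r x ∈ qOf (Z.r a)
  · exact key r s t hM c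
  obtain ⟨g, ⟨g1, g2⟩, e⟩ := (H.pre h).exists_conj_centralizing (W := K ⊓ qOf (Z.r d)) inf_le_right
    ⟨H.mem h, (H.pre h).mem⟩ r.mem fun c =>
      r.ne (((H d K h).meet h' nL.symm c.1 (H.mem s)).resolve_left r.ps.ne_one)
  rw [← Z.hr] at e
  refine key (e ▸ r.mul) ((H d L h').norm g1 ▸ s.cj g) (t.cj g)
    (hM.cj' (H.fix' hK ((H d K h).norm g1) (g2 _ ⟨H.mem hK, hw.mem⟩).symm))
    (e ▸ (H a L p).idx _ (H.mem h') _ (H.mem s) (fun c => na (H.symm_mem p h c)) c)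

theorem trace (n : ¬ Cl Z J K F) (k : Cl Z J K L) (k' : Cl Z J L F) (h : Fg Z J w K) :
    ∃ M, Fg Z J w M ∧ Cl Z J M F := by
  obtain ⟨d, p, q⟩ := k
  by_cases e : w = d
  · exact ⟨L, e ▸ q, k'⟩
  by_cases c : Z.r w ∈ qOf (Z.r d)
  · exact H.trace1 n p q k' (H.nw p h c e) h
  have key : ∀ {x}, NW (Z.r d) x → x ∈ K → x ∈ qOf (Z.r w) → ∃ M, Fg Z J w M ∧ Cl Z J M F :=
    fun r s t => by
      obtain ⟨l, rfl, i⟩ := (H d K p).of_nw r s
      obtain ⟨M, u, v⟩ := H.trace1 n p q k' r i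
      exact H.trace1 n i u v (H.nw h i t fun e => c (e ▸ r.mem)).symm h
  obtain ⟨a, a1, r⟩ := (H d K p).ex_nw
  by_cases f : a ∈ qOf (Z.r w)
  · exact key r a1 f
  · exact key r.mul (mul_mem (H.mem p) a1)
      ((H w K h).idx _ (H.mem p) _ a1 (fun e => c (H.symm_mem h p e)) f)

theorem diam (hK : Pt J K) (c : Relation.ReflTransGen (Cl Z J) K F) :
    ∃ L, Cl Z J K L ∧ Cl Z J L F := by
  induction c with
  | refl => exact ⟨K, hK.cl Z, hK.cl Z⟩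
  | @tail F F' _ e ih =>
    obtain ⟨L, p, q⟩ := ih
    by_cases n : Cl Z J F K
    · exact ⟨F, n.symm, e⟩
    obtain ⟨w, r, s⟩ := e
    obtain ⟨M, u, v⟩ := H.trace n q.symm p.symm r
    exact ⟨M, v.symm, w, u, s⟩

theorem one (c : Conn Z J) : One Z J := fun d K F h hF => by
  by_cases n : Cl Z J K F
  · exact ⟨K, h, n⟩
  have s : ∀ {A B}, Relation.ReflTransGen (Cl Z J) A B → Relation.ReflTransGen (Cl Z J) B A :=
    fun r => by
      induction r with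
      | refl => exact .refl
      | tail _ e ih => exact .head e.symm ih
  obtain ⟨L, p, q⟩ := H.diam h.pt ((s (c K h.pt)).trans (c F hF))
  exact H.trace n p q h

end Geo

end Cfsg.Lib.X9T
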