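import Cfsg.Agent.X9T.C
import Cfsg.Agent.X9O.D1
import Cfsg.Agent.X9O.D2

/-! # The lines act as Siegel transformations -/

set_option autoImplicit false

universe u v

namespace Cfsg.Lib.X9T

open Subgroup Cfsg.Lib.Local Cfsg.Lib.Solv Module Cfsg.Lib.Spor Cfsg.Lib.LX
open Cfsg.Lib.X9O (Ty cj_inj cj_eq_iff nw_cj cj_self d1_aux v_eq)
open scoped Pointwise commutatorElement

variable {G : Type u} [Group G] {Λ : Type v} [MulAction G Λ] {Z : Ln G Λ} {d a : Λ} {j : G}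
  {J K L M N N' F F' : Subgroup G}
  {V : Type} [AddCommGroup V] [Module (ZMod 2) V]

theorem exists_vec [Finite G] (Z : Ln G Λ) (J : Subgroup G) : ∃ (V : Type) (_ : AddCommGroup V)
    (_ : Module (ZMod 2) V) (_ : Finite V), Nonempty (Vec Z J V) := by
  classical
  let X := {K : Subgroup G // Pt J K}
  let e : Fin (Nat.card X) ≃ X := (Finite.equivFin X).symm
  letI : MulAction G (Fin (Nat.card X)) :=
    { smul := fun g i => e.symm ⟨MulAut.conj g • (e i).1, (e i).2.cj g⟩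
      one_smul := fun i => by
        change e.symm _ = _
        simp
      mul_smul := fun a b i => by
        change e.symm _ = e.symm ⟨MulAut.conj a • (e (e.symm _)).1, _⟩
        simp [mul_smul] }
  have hs : ∀ (g : G) i, (e (g • i)).1 = MulAut.conj g • (e i).1 := fun g i => by
    change (e (e.symm _)).1 = _
    simp
  obtain ⟨V, i1, i2, i3, f, b, φ, h1, h2, h3, h4⟩ := d1_aux (G := G)
    (fun i j => Cl Z J (e i).1 (e j).1) (fun _ _ => Cl.symm) fun g i j => by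
      rw [hs, hs]
      exact ⟨fun h => by simpa using h.cj g⁻¹, fun h => h.cj g⟩
  let F : Subgroup G → V := fun K => if h : Pt J K then f (e.symm ⟨K, h⟩) else 0
  have hF : ∀ {K} (h : Pt J K), F K = f (e.symm ⟨K, h⟩) := fun h => dif_pos h
  have hF' : ∀ i, F (e i).1 = f i := fun i => by rw [hF (e i).2]; simp
  refine ⟨V, i1, i2, i3, ⟨⟨F, b, φ, ?_, fun hK hL => ?_, fun v hv => h3 v fun i => ?_,
    fun g hK => ?_⟩⟩⟩
  · rw [eq_top_iff, ← h1]
    refine Submodule.span_mono ?_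
    rintro _ ⟨i, rfl⟩
    exact ⟨_, (e i).2, hF' i⟩
  · rw [hF hK, hF hL, h2]; simp
  · rw [← hF']; exact hv _ (e i).2
  · rw [hF hK, h4, ← hF', hs]; simp

namespace Vec

variable (R : Vec Z J V)

theorem b_zero (h : Cl Z J K L) : R.b (R.f K) (R.f L) = 0 := by
  obtain ⟨d, p, q⟩ := h
  exact (R.b_f p.pt q.pt).2 ⟨d, p, q⟩

theorem b_one (hK : Pt J K) (hL : Pt J L) (h : ¬ Cl Z J K L) : R.b (R.f K) (R.f L) = 1 :=
  (z2_cases _).resolve_left fun e => h ((R.b_f hK hL).1 e)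

theorem ext_f {W : Type*} [AddCommGroup W] [Module (ZMod 2) W] {s t : V →ₗ[ZMod 2] W}
    (h : ∀ K, Pt J K → s (R.f K) = t (R.f K)) : s = t :=
  LinearMap.ext_on R.span (by rintro _ ⟨K, hK, rfl⟩; exact h K hK)

theorem b_iff (hK : Pt J K) (hL : Pt J L) (hM : Pt J M) (hN : Pt J N)
    (h : Cl Z J K L ↔ Cl Z J M N) : R.b (R.f K) (R.f L) = R.b (R.f M) (R.f N) := by
  by_cases c : Cl Z J K L
  · rw [R.b_zero c, R.b_zero (h.1 c)]
  · rw [R.b_one hK hL c, R.b_one hM hN fun e => c (h.2 e)]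

theorem symm (u v : V) : R.b u v = R.b v u := by
  have : R.b = R.b.flip := R.ext_f fun K hK => R.ext_f fun L hL =>
    R.b_iff hK hL hL hK ⟨Cl.symm, Cl.symm⟩
  exact LinearMap.congr_fun₂ this u v

theorem inv (g : G) (u v : V) : R.b (R.φ g u) (R.φ g v) = R.b u v := by
  have : R.b.compl₁₂ (R.φ g).toLinearMap (R.φ g).toLinearMap = R.b :=
    R.ext_f fun K hK => R.ext_f fun L hL => by
      simp only [LinearMap.compl₁₂_apply, LinearEquiv.coe_coe, R.φ_f g hK, R.φ_f g hL]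
      exact R.b_iff (hK.cj g) (hL.cj g) hK hL ⟨fun h => by simpa using h.cj g⁻¹, fun h => h.cj g⟩
  exact LinearMap.congr_fun₂ this u v

theorem alt (v : V) : R.b v v = 0 := by
  have hv : v ∈ Submodule.span (ZMod 2) (R.f '' {K | Pt J K}) := R.span ▸ Submodule.mem_top
  induction hv using Submodule.span_induction with
  | mem x hx =>
    obtain ⟨K, hK, rfl⟩ := hx
    exact R.b_zero (Pt.cl hK Z)
  | zero => simp
  | add x y _ _ hx hy =>
    simp only [map_add, LinearMap.add_apply, hx, hy, R.symm y x, zero_add, add_zero, add_self']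
  | smul a x _ hx => simp [hx]

end Vec

namespace Geo

variable (H : Geo Z J)
include H

theorem all3 (hK : Fg Z J d K) (hL : Fg Z J d L) (hM : Fg Z J d M) (n : K ≠ L) (n1 : M ≠ K)
    (n2 : M ≠ L) (hF : Fg Z J d F) : F = K ∨ F = L ∨ F = M := by
  obtain ⟨M', -, -, -, k⟩ := H.third_pt hK hL n
  have := k M hM
  have := k F hF
  grind

theorem cases3 (o : One Z J) (hK : Fg Z J d K) (hL : Fg Z J d L) (hM : Fg Z J d M) (n : K ≠ L)
    (n1 : M ≠ K) (n2 : M ≠ L) (hF : Pt J F) :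
    (Cl Z J F K ∧ Cl Z J F L ∧ Cl Z J F M) ∨ (Cl Z J F K ∧ ¬ Cl Z J F L ∧ ¬ Cl Z J F M) ∨
      (¬ Cl Z J F K ∧ Cl Z J F L ∧ ¬ Cl Z J F M) ∨ (¬ Cl Z J F K ∧ ¬ Cl Z J F L ∧ Cl Z J F M) := by
  obtain ⟨N, hN, c⟩ := o d K F hK hF
  have a1 := H.third (F := F) hK hL hM n
  have a2 := H.third (F := F) hM hK hL n1
  have a3 := H.third (F := F) hM hL hK n2
  rcases H.all3 hK hL hM n n1 n2 hN with rfl | rfl | rfl <;> have := c.symm <;> tauto

theorem ex_opp (hK : Pt J K) : ∃ F, Pt J F ∧ ¬ Cl Z J K F := by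
  obtain ⟨d, h⟩ := hK.fg Z
  obtain ⟨L, hL, n⟩ := H.other h
  obtain ⟨τ, p, q⟩ := (H d L hL).ex_out
  obtain ⟨F, hF, m⟩ := H.other p
  have nd : τ ≠ d := fun e => q (e ▸ (H.pre h).mem)
  refine ⟨F, hF.pt, fun c => q (H.tri hL h p hF c n m.symm (fun e => nd ?_) nd).mem⟩
  exact H.uniq hL h n p (e ▸ H.mem hF)

theorem fix3 [Finite G] (hK : Fg Z J d K) (hM : Fg Z J d M) (n : K ≠ M) (c : Cl Z J F K)
    (c' : Cl Z J F M) : MulAut.conj (Z.r d) • F = F := by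
  by_cases e : Fg Z J d F
  · exact cj_self (H.mem e)
  obtain ⟨a, p, q⟩ := c
  exact (H a F p).norm (H.tri hK hM q p c'.symm n (fun k => e (k ▸ hK)) (fun k => e (k ▸ hM))
    fun k => e (k ▸ p)).zs

end Geo

namespace Vec

variable (R : Vec Z J V) (H : Geo Z J) (o : One Z J)
include H o

theorem sum3 (hK : Fg Z J d K) (hL : Fg Z J d L) (hM : Fg Z J d M) (n : K ≠ L)
    (n1 : M ≠ K) (n2 : M ≠ L) : R.f M = R.f K + R.f L := by
  refine v_eq (R.nondeg _ fun F hF => ?_)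
  rw [map_add, map_add]
  rcases H.cases3 o hK hL hM n n1 n2 hF with ⟨a, b, c⟩ | ⟨a, b, c⟩ | ⟨a, b, c⟩ | ⟨a, b, c⟩
  · rw [R.b_zero a, R.b_zero b, R.b_zero c]; rfl
  · rw [R.b_zero a, R.b_one hF hL.pt b, R.b_one hF hM.pt c]; rfl
  · rw [R.b_one hF hK.pt a, R.b_zero b, R.b_one hF hM.pt c]; rfl
  · rw [R.b_one hF hK.pt a, R.b_one hF hL.pt b, R.b_zero c]; rfl

theorem mv0 (hN : Fg Z J a N) (hF : Fg Z J a F) (n : N ≠ F) (hj : j ∈ N) (nj : j ∉ qOf (Z.r a)) :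
    R.φ j (R.f F) = R.f F + R.f N := by
  rw [R.φ_f j hF.pt]
  exact R.sum3 H o hF hN (hF.cj' (H.fix hN hj)) n.symm ((H a N hN).move hF n hj nj)
    fun e => n (cj_inj ((cj_self hj).trans e.symm))

theorem mv (hN : Fg Z J d N) (hN' : Fg Z J d N') (c : Cl Z J F N) (c' : ¬ Cl Z J F N') :
    R.φ (Z.r d) (R.f F) = R.f F + R.f N := by
  obtain ⟨a, p, q⟩ := c
  have n : N ≠ F := fun e => c' ⟨d, e ▸ hN, hN'⟩
  refine R.mv0 H o q p n (H.mem hN) fun m => c' ?_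
  by_cases e : d = a
  · exact ⟨a, p, e ▸ hN'⟩
  obtain ⟨x, -, r, s⟩ := H.plane q (H.nw q hN m e) hN p hN' n.symm
    fun k => c' ⟨a, p, k ▸ q⟩
  exact ⟨x, r, s⟩

variable [Finite G]

theorem act' (hK : Fg Z J d K) (hM : Fg Z J d M) (n : K ≠ M) (v : V) :
    R.φ (Z.r d) v = v + R.b v (R.f K) • R.f M + R.b v (R.f M) • R.f K := by
  have : (R.φ (Z.r d)).toLinearMap = LinearMap.id + (R.b.flip (R.f K)).smulRight (R.f M) +
      (R.b.flip (R.f M)).smulRight (R.f K) := R.ext_f fun F hF => by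
    change R.φ (Z.r d) (R.f F) = R.f F + R.b (R.f F) (R.f K) • R.f M + R.b (R.f F) (R.f M) • R.f K
    obtain ⟨N, hN, n1, n2, -⟩ := H.third_pt hK hM n
    rcases H.cases3 o hK hM hN n n1 n2 hF with ⟨a, b, -⟩ | ⟨a, b, -⟩ | ⟨a, b, -⟩ | ⟨a, b, c⟩
    · rw [R.b_zero a, R.b_zero b, R.φ_f (Z.r d) hF, H.fix3 hK hM n a b]; simp
    · rw [R.b_zero a, R.b_one hF hM.pt b, R.mv H o hK hM a b]; simp
    · rw [R.b_one hF hK.pt a, R.b_zero b, R.mv H o hM hK b a]; simp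
    · rw [R.b_one hF hK.pt a, R.b_one hF hM.pt b, R.mv H o hN hK c a, R.sum3 H o hK hM hN n n1 n2,
        one_smul, one_smul]
      abel
  exact LinearMap.congr_fun this v

theorem step (hK : Pt J K) (a : ¬ Cl Z J K F) (b : ¬ Cl Z J K F') (c : Cl Z J F F') :
    ∃ j ∈ K, R.φ j (R.f F) = R.f F' := by
  by_cases e : F = F'
  · exact ⟨1, one_mem _, by simp [e]⟩
  obtain ⟨d, p, q⟩ := c
  obtain ⟨N, hN, n1, n2, -⟩ := H.third_pt p q e
  obtain ⟨w, r, s⟩ : Cl Z J K N := by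
    have := H.cases3 o p q hN e n1 n2 hK
    tauto
  refine ⟨Z.r w, H.mem r, ?_⟩
  rw [R.act' H o r s fun k => a ⟨d, k ▸ hN, p⟩, R.b_one p.pt hK fun k => a k.symm,
    R.b_zero ⟨d, p, hN⟩, R.sum3 H o p hN q n1.symm (Ne.symm e) n2.symm]
  simp

omit H o [Finite G] in
theorem rtrans {A B C : Subgroup G} (p : ∃ j ∈ K, R.φ j (R.f A) = R.f B)
    (q : ∃ j ∈ K, R.φ j (R.f B) = R.f C) : ∃ j ∈ K, R.φ j (R.f A) = R.f C := by
  obtain ⟨i, hi, p⟩ := p
  obtain ⟨j, hj, q⟩ := q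
  exact ⟨j * i, mul_mem hj hi, by rw [map_mul, LinearEquiv.mul_apply, p, q]⟩

omit o [Finite G] in
theorem thirdOpp (p : Fg Z J d F) (q : Fg Z J d M) (a : ¬ Cl Z J K F) (b : Cl Z J K M) :
    ∃ N, Fg Z J d N ∧ N ≠ F ∧ N ≠ M ∧ ¬ Cl Z J K N := by
  obtain ⟨N, hN, n1, n2, -⟩ := H.third_pt p q fun e => a (e ▸ b)
  exact ⟨N, hN, n1, n2, fun c => a (H.third hN q p n2 c b)⟩

theorem case1 (hK : Pt J K) (hF' : Pt J F') (p : Fg Z J d F) (q : Fg Z J d M) (a : ¬ Cl Z J K F)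
    (a' : ¬ Cl Z J K F') (b : Cl Z J K M) (c : ¬ Cl Z J F' F) (e : ¬ Cl Z J F' M) :
    ∃ j ∈ K, R.φ j (R.f F) = R.f F' := by
  obtain ⟨N, hN, n1, n2, k⟩ := thirdOpp H p q a b
  have : Cl Z J F' N := by
    have := H.cases3 o p q hN (fun e => a (e ▸ b)) n1 n2 hF'
    tauto
  exact R.rtrans (R.step H o hK a k ⟨d, p, hN⟩) (R.step H o hK k a' this.symm)

theorem opp' (hK : Pt J K) (hF : Pt J F) (hF' : Pt J F') (a : ¬ Cl Z J K F) (a' : ¬ Cl Z J K F') :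
    ∃ j ∈ K, R.φ j (R.f F) = R.f F' := by
  by_cases c : Cl Z J F' F
  · exact R.step H o hK a a' c.symm
  obtain ⟨d, p⟩ := hF.fg Z
  obtain ⟨τ, p', nτ⟩ := (H d F p).ex_out
  obtain ⟨M, q, b⟩ := o d F K p hK
  obtain ⟨M', q', b'⟩ := o τ F K p' hK
  by_cases e : Cl Z J F' M
  swap
  · exact R.case1 H o hK hF' p q a a' b.symm c e
  by_cases e' : Cl Z J F' M'
  swap
  · exact R.case1 H o hK hF' p' q' a a' b'.symm c e'
  obtain ⟨N, hN, n1, n2, k⟩ := thirdOpp H p q a b.symm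
  obtain ⟨w, r, s⟩ := e'
  obtain ⟨N', hN', n1', n2', k'⟩ := thirdOpp H r s a' b'.symm
  have f1 : F ≠ M := fun e => a (e ▸ b.symm)
  have nd : τ ≠ d := fun e => nτ (e ▸ (H.pre p).mem)
  have mm : ¬ Cl Z J M M' := fun l => nτ (H.tri p q p' q' l f1 (fun e => a (e ▸ b'.symm))
    (fun e => nd (H.uniq p q f1 p' (e ▸ H.mem q'))) nd).mem
  have : Cl Z J N N' := (R.b_f hN.pt hN'.pt).1 (by
    rw [R.sum3 H o p q hN f1 n1 n2, R.sum3 H o r s hN' (fun e => a' (e ▸ b'.symm)) n1' n2']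
    simp only [map_add, LinearMap.add_apply]
    rw [R.b_one hF hF' fun l => c l.symm, R.b_zero e.symm, R.b_zero ⟨τ, p', q'⟩,
      R.b_one q.pt q'.pt mm]
    rfl)
  exact R.rtrans (R.rtrans (R.step H o hK a k ⟨d, p, hN⟩) (R.step H o hK k k' this))
    (R.step H o hK k' a' ⟨w, hN', r⟩)

theorem good : R.Good where
  act h h' n := R.act' H o h h' n
  opp := R.opp' H o
  ex := H.ex_opp
  faith {K j} hK hj k := by
    obtain ⟨d, p⟩ := hK.fg Z
    refine (H d K p).faith j hj fun w hw => ?_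
    by_contra n
    obtain ⟨L, hL, m⟩ := H.other hw
    have e := R.mv0 H o hw hL m.symm hj n
    rw [k L ⟨w, hw, hL⟩, left_eq_add] at e
    obtain ⟨F, hF, c⟩ := H.ex_opp hK
    have := R.b_one hK hF c
    simp [e] at this

end Vec

end Cfsg.Lib.X9T
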