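import Cfsg.Agent.X9O.C

/-!
# Large extraspecial subgroups of order `2⁹` with a polar space up to triality: definitions

The points of the polar space are the conjugates of an elementary abelian group `J` of order `64`,
the lines are the elements of an orbit which maps equivariantly onto the conjugates of `z`.
-/

set_option autoImplicit false

universe u v

namespace Cfsg.Lib.X9T

open Subgroup Cfsg.Lib.Local Cfsg.Lib.Solv Module Cfsg.Lib.Spor Cfsg.Lib.LX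
open Cfsg.Lib.X9O (Ty cj_inj cj_eq_iff nw_cj cj_self)
open scoped Pointwise commutatorElement

/-- A base line with an equivariant map from the lines to the group. -/
structure Ln (G : Type u) [Group G] (Λ : Type v) [MulAction G Λ] where
  o : Λ
  r : Λ → G
  hr : ∀ (g : G) (l : Λ), r (g • l) = g * r l * g⁻¹

variable {G : Type u} [Group G] {Λ : Type v} [MulAction G Λ]

/-- The flags. -/
def Fg (Z : Ln G Λ) (J : Subgroup G) (d : Λ) (K : Subgroup G) : Prop :=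
  ∃ g : G, g • Z.o = d ∧ MulAut.conj g • J = K

/-- Collinear (or equal) points. -/
def Cl (Z : Ln G Λ) (J K L : Subgroup G) : Prop := ∃ d, Fg Z J d K ∧ Fg Z J d L

/-- The points. -/
def Pt (J K : Subgroup G) : Prop := ∃ g : G, MulAut.conj g • J = K

/-- The axioms at the flag `(d, K)`. -/
structure At (Z : Ln G Λ) (J : Subgroup G) (d : Λ) (K : Subgroup G) : Prop where
  pre : PreLX (qOf (Z.r d)) (Z.r d)
  mem : Z.r d ∈ K
  sq : ∀ x ∈ K, x * x = 1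
  card : Nat.card K = 64
  three : ∃ L M, Fg Z J d L ∧ Fg Z J d M ∧ L ≠ K ∧ M ≠ K ∧ L ≠ M ∧
    ∀ F, Fg Z J d F → F = K ∨ F = L ∨ F = M
  meet : ∀ {L x}, Fg Z J d L → K ≠ L → x ∈ K → x ∈ L → x = 1 ∨ x = Z.r d
  idx : IdxLeTwo (qOf (Z.r d)) K
  move : ∀ {L a}, Fg Z J d L → K ≠ L → a ∈ K → a ∉ qOf (Z.r d) → MulAut.conj a • L ≠ L
  norm : ∀ {a}, a ∈ qOf (Z.r d) → MulAut.conj a • K = K
  inj : ∀ {w}, Fg Z J w K → Z.r w = Z.r d → w = d
  of_nw : ∀ {w}, NW (Z.r d) w → w ∈ K → ∃ l, Z.r l = w ∧ Fg Z J l K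
  typ : ∀ {w L}, Fg Z J w L → Z.r w = Z.r d → (∀ x ∈ K, x ∈ L → x = 1 ∨ x = Z.r d) → w = d
  plane : ∀ {w L M}, NW (Z.r d) (Z.r w) → Fg Z J w K → Fg Z J d L → Fg Z J w M → L ≠ K → M ≠ K →
    ∃ y, NW (Z.r d) y ∧ NW (Z.r w) y ∧ y ∈ L ∧ y ∈ M ∧ ∀ x ∈ L, x ∈ qOf (Z.r d) → x ∈ qOf (Z.r w) →
      x = 1 ∨ x = Z.r d ∨ x = y ∨ x = y * Z.r d
  line : ∀ {w}, NW (Z.r d) w → ∃ l L, Z.r l = w ∧ Fg Z J d L ∧ Fg Z J l L
  ex_nw : ∃ w ∈ K, NW (Z.r d) w
  ex_out : ∃ w, Fg Z J w K ∧ Z.r w ∉ qOf (Z.r d)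
  faith : ∀ x ∈ K, (∀ w, Fg Z J w K → x ∈ qOf (Z.r w)) → x = 1
  gen : closure (Z.r '' {w | Fg Z J w K}) = K

/-- The axioms at all flags. -/
def Geo (Z : Ln G Λ) (J : Subgroup G) : Prop := ∀ d K, Fg Z J d K → At Z J d K

/-- The collinearity graph is connected. -/
def Conn (Z : Ln G Λ) (J : Subgroup G) : Prop := ∀ K, Pt J K → Relation.ReflTransGen (Cl Z J) J K

/-- Every point is collinear with a point of each line. -/
def One (Z : Ln G Λ) (J : Subgroup G) : Prop :=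
  ∀ d K F, Fg Z J d K → Pt J F → ∃ M, Fg Z J d M ∧ Cl Z J M F

/-- The local structure: three totally singular subspaces permuted by a subgroup `C` of `C(z)`. -/
structure Loc {z : G} {V : Type*} [AddCommGroup V] [Module (ZMod 2) V] (S : Sh (qOf z) z V)
    (s t : G) (W : Fin 3 → Submodule (ZMod 2) V) (C : Subgroup G) : Prop extends Ty S s where
  le : C ≤ centralizer ({z} : Set G)
  QC : qOf z ≤ C
  tC0 : t ∈ C
  perm : ∀ c ∈ C, ∀ i, ∃ j, (W i).map (S.ρ c) = W j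
  disj : ∀ i j, i ≠ j → ∀ v ∈ W i, v ∈ W j → v = 0
  tB : t ∈ BB z s
  tQ : t ∉ qOf z
  ker : ∀ v, v ∈ W 0 ↔ S.N t v = 0
  sing : ∀ v ∈ W 0, S.q v = 0
  e1 : ∃ c ∈ C, S.ρ c (S.π s) ∈ W 1 ∧ S.ρ c (S.π s) ∈ S.E s
  cen : ∀ c ∈ centralizer ({z} : Set G), (∀ v ∈ W 0, v ∈ S.E s → S.ρ c v = v) →
    c ∈ qOf z ∨ c * t ∈ qOf z
  span : W 0 ≤ Submodule.span (ZMod 2) {v | v ∈ W 0 ∧ ∃ w, NW z w ∧ S.π w = v}
  fac : ∀ c ∈ centralizer ({z} : Set G), ∃ k ∈ C, S.ρ k (S.π s) = S.ρ c (S.π s)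
  out : ∀ c ∈ centralizer ({z} : Set G), c ∉ C →
    (∃ v ∈ W 0, v ≠ 0 ∧ S.ρ c v ∈ W 0) ∧ ∃ v ∈ W 0, S.ρ c v ∉ W 0
  idx : ∃ k k' : G, ∀ c ∈ centralizer ({z} : Set G), c ∈ C ∨ k * c ∈ C ∨ k' * c ∈ C

/-- The linear representation of the polar space. -/
structure Vec (Z : Ln G Λ) (J : Subgroup G) (V : Type) [AddCommGroup V] [Module (ZMod 2) V] where
  f : Subgroup G → V
  b : LinearMap.BilinForm (ZMod 2) V
  φ : G →* (V ≃ₗ[ZMod 2] V)
  span : Submodule.span (ZMod 2) (f '' {K | Pt J K}) = ⊤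
  b_f : ∀ {K L}, Pt J K → Pt J L → (b (f K) (f L) = 0 ↔ Cl Z J K L)
  nondeg : ∀ v, (∀ K, Pt J K → b (f K) v = 0) → v = 0
  φ_f : ∀ {K} (g : G), Pt J K → φ g (f K) = f (MulAut.conj g • K)

/-- The lines act as Siegel transformations, the points act transitively on their opposites. -/
structure Vec.Good {Z : Ln G Λ} {J : Subgroup G} {V : Type} [AddCommGroup V] [Module (ZMod 2) V]
    (R : Vec Z J V) : Prop where
  act : ∀ {d K M}, Fg Z J d K → Fg Z J d M → K ≠ M → ∀ v,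
    R.φ (Z.r d) v = v + R.b v (R.f K) • R.f M + R.b v (R.f M) • R.f K
  opp : ∀ {K F F'}, Pt J K → Pt J F → Pt J F' → ¬ Cl Z J K F → ¬ Cl Z J K F' →
    ∃ j ∈ K, R.φ j (R.f F) = R.f F'
  ex : ∀ {K}, Pt J K → ∃ F, Pt J F ∧ ¬ Cl Z J K F
  faith : ∀ {K j}, Pt J K → j ∈ K → (∀ F, Cl Z J K F → R.φ j (R.f F) = R.f F) → j = 1

theorem Fg_eq_1' : type_of% @Fg.eq_1 := @Fg.eq_1
theorem Cl_eq_1' : type_of% @Cl.eq_1 := @Cl.eq_1
theorem Pt_eq_1' : type_of% @Pt.eq_1 := @Pt.eq_1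
theorem Geo_eq_1' : type_of% @Geo.eq_1 := @Geo.eq_1
theorem Conn_eq_1' : type_of% @Conn.eq_1 := @Conn.eq_1
theorem One_eq_1' : type_of% @One.eq_1 := @One.eq_1

variable {Z : Ln G Λ} {d w : Λ} {J K L M F : Subgroup G}

theorem Fg.base (Z : Ln G Λ) (J : Subgroup G) : Fg Z J Z.o J := ⟨1, by simp, by simp⟩

theorem Fg.cj (h : Fg Z J d K) (g : G) : Fg Z J (g • d) (MulAut.conj g • K) := by
  obtain ⟨k, rfl, rfl⟩ := h
  exact ⟨g * k, mul_smul .., (cj_cj ..).symm⟩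

theorem Fg.cj' (h : Fg Z J d K) {g : G} (hg : g • d = d) : Fg Z J d (MulAut.conj g • K) := by
  simpa [hg] using h.cj g

theorem Fg.cj_iff {g : G} : Fg Z J (g • d) K ↔ Fg Z J d (MulAut.conj g⁻¹ • K) :=
  ⟨fun h => by simpa using h.cj g⁻¹, fun h => by simpa [cj_inv'] using h.cj g⟩

theorem Fg.cj_iff' {g : G} : Fg Z J d (MulAut.conj g • K) ↔ Fg Z J (g⁻¹ • d) K :=
  ⟨fun h => by simpa [cj_inv] using h.cj g⁻¹, fun h => by simpa using h.cj g⟩

theorem Fg.isConj (h : Fg Z J d K) : IsConj (Z.r Z.o) (Z.r d) := by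
  obtain ⟨g, rfl, -⟩ := h; exact isConj_iff.2 ⟨g, (Z.hr ..).symm⟩

theorem Fg.pt (h : Fg Z J d K) : Pt J K := by
  obtain ⟨g, -, e⟩ := h; exact ⟨g, e⟩

theorem Pt.cj (h : Pt J K) (g : G) : Pt J (MulAut.conj g • K) := by
  obtain ⟨k, rfl⟩ := h; exact ⟨g * k, (cj_cj ..).symm⟩

theorem Pt.fg (h : Pt J K) (Z : Ln G Λ) : ∃ d, Fg Z J d K := by
  obtain ⟨g, e⟩ := h; exact ⟨_, g, rfl, e⟩

theorem Cl.symm (h : Cl Z J K L) : Cl Z J L K := h.imp fun _ => And.symm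

theorem Cl.cj (h : Cl Z J K L) (g : G) : Cl Z J (MulAut.conj g • K) (MulAut.conj g • L) := by
  obtain ⟨d, a, b⟩ := h; exact ⟨_, a.cj g, b.cj g⟩

theorem Pt.cl (h : Pt J K) (Z : Ln G Λ) : Cl Z J K K := by
  obtain ⟨d, e⟩ := h.fg Z; exact ⟨d, e, e⟩

theorem Ln.hr' (Z : Ln G Λ) (g : G) (l : Λ) : Z.r (g⁻¹ • l) = g⁻¹ * Z.r l * g := by
  rw [Z.hr, inv_inv]

theorem At.cj (h : At Z J d K) (g : G) : At Z J (g • d) (MulAut.conj g • K) where
  pre := h.pre.qOf_of_conj ⟨g, (Z.hr ..).symm⟩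
  mem := by rw [Z.hr]; exact cj_mem h.mem
  sq x hx := by
    have := h.sq _ ((mem_cj g).1 hx)
    rw [← cj_mul] at this
    rw [show x * x = g * (g⁻¹ * (x * x) * g) * g⁻¹ by group, this]; group
  card := by rw [← h.card]; exact (Nat.card_congr (equivSMul _ _).toEquiv).symm
  three := by
    obtain ⟨L, M, a, b, c, e, f, k⟩ := h.three
    refine ⟨_, _, a.cj g, b.cj g, fun x => c (cj_inj x), fun x => e (cj_inj x), fun x => f (cj_inj x),
      fun F hF => ?_⟩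
    simpa only [cj_eq_iff] using k _ (Fg.cj_iff.1 hF)
  meet {L x} a n b c := by
    have := h.meet (Fg.cj_iff.1 a) (fun e => n (cj_eq_iff.1 e.symm).symm) ((mem_cj g).1 b)
      (by simpa using cj_mem (g := g⁻¹) c)
    refine this.imp (fun e => ?_) fun e => by rw [Z.hr, ← e]; group
    rw [show x = g * (g⁻¹ * x * g) * g⁻¹ by group, e]; group
  idx a ha b hb na nb := by
    rw [Z.hr, mem_Q_cj] at na nb ⊢
    rw [cj_mul]
    exact h.idx _ ((mem_cj g).1 ha) _ ((mem_cj g).1 hb) na nb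
  move {L a} b n c e f := h.move (Fg.cj_iff.1 b) (fun e => n (cj_eq_iff.1 e.symm).symm)
    ((mem_cj g).1 c) (by rwa [← mem_Q_cj, ← Z.hr]) (by
      rw [cj_cj, show g⁻¹ * a * g * g⁻¹ = g⁻¹ * a by group, ← cj_cj, f])
  norm {a} b := by
    rw [Z.hr] at b
    have := h.norm ((mem_Q_cj g).1 b)
    rw [cj_cj, show a * g = g * (g⁻¹ * a * g) by group, ← cj_cj, this]
  inj {w} a b := by
    rw [← h.inj (Fg.cj_iff'.1 a) (by rw [Z.hr', b, Z.hr]; group), smul_inv_smul]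
  of_nw {w} a b := by
    rw [Z.hr] at a
    obtain ⟨l, p, q⟩ := h.of_nw (nw_cj a) ((mem_cj g).1 b)
    exact ⟨_, by rw [Z.hr, p]; group, q.cj g⟩
  typ {w L} a b c := by
    rw [← h.typ (a.cj g⁻¹) (by rw [Z.hr', b, Z.hr]; group) fun x p q => ?_, smul_inv_smul]
    have := c _ (cj_mem p) (by simpa using (mem_cj g⁻¹).1 q)
    rw [Z.hr] at this
    simpa using this
  plane {w L M} a b c e n m := by
    rw [Z.hr] at a ⊢
    obtain ⟨y, p, q, r, s, k⟩ := h.plane (M := MulAut.conj g⁻¹ • M) (Z.hr' g w ▸ nw_cj a)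
      (Fg.cj_iff'.1 b) (Fg.cj_iff.1 c) (e.cj g⁻¹) (fun e => n (cj_eq_iff.1 e))
      fun e => m (cj_eq_iff.1 e)
    refine ⟨_, p.conj g, by simpa [Z.hr, mul_assoc] using q.conj g,
      by simpa using (mem_cj g⁻¹).1 r, by simpa using (mem_cj g⁻¹).1 s, fun x x1 x2 x3 => ?_⟩
    have := k (g⁻¹ * x * g) (by simpa using cj_mem (g := g⁻¹) x1) ((mem_Q_cj g).1 x2)
      (by simpa [Z.hr] using mem_qOf_conj (g := g⁻¹) x3)
    rw [show x = g * (g⁻¹ * x * g) * g⁻¹ by group]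
    rcases this with e | e | e | e <;> simp [e, mul_assoc]
  line {w} a := by
    rw [Z.hr] at a
    obtain ⟨l, L, e, b, c⟩ := h.line (nw_cj a)
    exact ⟨g • l, _, by rw [Z.hr, e]; group, b.cj g, c.cj g⟩
  ex_nw := by
    obtain ⟨w, a, b⟩ := h.ex_nw
    exact ⟨_, cj_mem a, by rw [Z.hr]; exact b.conj g⟩
  ex_out := by
    obtain ⟨w, a, b⟩ := h.ex_out
    exact ⟨_, a.cj g, by rwa [Z.hr, Z.hr, mem_qOf_conj_iff]⟩
  faith x hx k := by
    have := h.faith _ ((mem_cj g).1 hx) fun w hw => (mem_Q_cj g).1 (Z.hr g w ▸ k _ (hw.cj g))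
    rw [show x = g * (g⁻¹ * x * g) * g⁻¹ by group, this]; group
  gen := by
    refine le_antisymm ((closure_le _).2 ?_) fun x hx => ?_
    · rintro _ ⟨w, hw, rfl⟩
      refine (mem_cj g).2 ?_
      rw [← h.gen]; exact subset_closure ⟨_, Fg.cj_iff'.1 hw, Z.hr' ..⟩
    · have hy := (mem_cj g).1 hx
      rw [show x = g * (g⁻¹ * x * g) * g⁻¹ by group]
      generalize g⁻¹ * x * g = y at hy
      rw [← h.gen] at hy
      induction hy using closure_induction with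
      | mem y hy =>
        obtain ⟨w, hw, rfl⟩ := hy
        exact subset_closure ⟨_, Fg.cj hw g, Z.hr ..⟩
      | one => simp
      | mul a b _ _ ha hb =>
        rw [show g * (a * b) * g⁻¹ = g * a * g⁻¹ * (g * b * g⁻¹) by group]; exact mul_mem ha hb
      | inv a _ ha => rw [← conj_inv]; exact inv_mem ha

theorem At.geo (h : At Z J Z.o J) : Geo Z J := by
  rintro _ _ ⟨g, rfl, rfl⟩; exact h.cj g

end Cfsg.Lib.X9T
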